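import Cfsg.Agent.GLFlag.CompLabel

/-!
The permutations with `κ i ≤ i + 1` correspond to sets of cuts.
-/

set_option autoImplicit false

namespace CfsgLib.GLSteinberg

open Finset CfsgLib.GLFlag

variable {n : ℕ}

/-- A cut: a chosen position, or the top. -/
abbrev cut (n : ℕ) (S : Finset ℕ) (k : ℕ) : Prop := k ∈ S ∨ k = n

/-- The last cut at or below `k`. -/
def lastCut (n : ℕ) (S : Finset ℕ) : ℕ → ℕ
  | 0 => 0
  | k + 1 => if cut n S (k + 1) then k + 1 else lastCut n S k

theorem lastCut_succ (S : Finset ℕ) (k : ℕ) :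
    lastCut n S (k + 1) = if cut n S (k + 1) then k + 1 else lastCut n S k := rfl

theorem lastCut_le (S : Finset ℕ) : ∀ k, lastCut n S k ≤ k
  | 0 => le_rfl
  | k + 1 => by
    rw [lastCut_succ]
    split_ifs
    · exact le_rfl
    · exact (lastCut_le S k).trans (Nat.le_succ k)

theorem lastCut_cut (S : Finset ℕ) : ∀ k, lastCut n S k = 0 ∨ cut n S (lastCut n S k)
  | 0 => Or.inl rfl
  | k + 1 => by
    rw [lastCut_succ]
    split_ifs with h
    · exact Or.inr h
    · exact lastCut_cut S k

theorem lastCut_self {S : Finset ℕ} {k : ℕ} (h : cut n S k) : lastCut n S k = k := by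
  cases k with
  | zero => rfl
  | succ k => rw [lastCut_succ, if_pos h]

theorem lastCut_mono (S : Finset ℕ) : Monotone (lastCut n S) := by
  refine monotone_nat_of_le_succ fun k => ?_
  rw [lastCut_succ]
  split_ifs
  · exact (lastCut_le S k).trans (Nat.le_succ k)
  · exact le_rfl

theorem lastCut_const (S : Finset ℕ) {a : ℕ} : ∀ {b : ℕ}, a ≤ b → (∀ j, a < j → j ≤ b → ¬ cut n S j) →
    lastCut n S b = lastCut n S a := by
  intro b hab h
  induction b, hab using Nat.le_induction with
  | base => rfl
  | succ b hb ih =>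
    rw [lastCut_succ, if_neg (h _ (by omega) le_rfl), ih fun j h1 h2 => h j h1 (by omega)]

/-- The value of the permutation attached to a set of cuts. -/
def cutVal (n : ℕ) (S : Finset ℕ) (i : ℕ) : ℕ := if cut n S (i + 1) then lastCut n S i else i + 1

theorem cutVal_lt (S : Finset ℕ) {i : ℕ} (hi : i < n) : cutVal n S i < n := by
  unfold cutVal
  split_ifs with h
  · exact lt_of_le_of_lt (lastCut_le S i) hi
  · simp only [cut, not_or] at h; omega

theorem cutVal_le (S : Finset ℕ) (i : ℕ) : cutVal n S i ≤ i + 1 := by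
  unfold cutVal
  split_ifs
  · exact (lastCut_le S i).trans (Nat.le_succ i)
  · exact le_rfl

theorem cutVal_inj (S : Finset ℕ) : ∀ i l : ℕ, l < i → cutVal n S i ≠ cutVal n S l := by
  intro i l hli
  unfold cutVal
  split_ifs with h1 h2 h2
  · have := lastCut_mono (n := n) S (show l + 1 ≤ i by omega)
    rw [lastCut_self h2] at this
    have := lastCut_le (n := n) S l
    omega
  · intro h
    rcases lastCut_cut (n := n) S i with h0 | h0
    · omega
    · exact h2 (h ▸ h0)
  · have := lastCut_le (n := n) S l; omega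
  · omega

/-- The permutation attached to a set of cuts. -/
noncomputable def cutPerm (n : ℕ) (S : Finset ℕ) : Equiv.Perm (Fin n) :=
  Equiv.ofBijective (fun i => ⟨cutVal n S i.val, cutVal_lt S i.isLt⟩) <| Finite.injective_iff_bijective.1
    fun i l h => by
      have h' : cutVal n S i.val = cutVal n S l.val := congrArg Fin.val h
      rcases Nat.lt_trichotomy i.val l.val with hlt | heq | hgt
      · exact absurd h'.symm (cutVal_inj S _ _ hlt)
      · exact Fin.ext heq
      · exact absurd h' (cutVal_inj S _ _ hgt)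

theorem cutPerm_val (S : Finset ℕ) (i : Fin n) : (cutPerm n S i).val = cutVal n S i.val := rfl

theorem psum_cutPerm (S : Finset ℕ) : ∀ k ≤ n, psum (fun i : Fin n => i.val + 1 - (cutPerm n S i).val) k = lastCut n S k
  | 0, _ => psum_zero _
  | k + 1, hk => by
    have h := psum_succ (fun i : Fin n => i.val + 1 - (cutPerm n S i).val) ⟨k, hk⟩
    simp only at h
    rw [h, psum_cutPerm S k (by omega), cutPerm_val, lastCut_succ]
    simp only [cutVal]
    have := lastCut_le (n := n) S k
    split_ifs <;> omega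

theorem cutPerm_injective {S T : Finset ℕ} (hS : S ⊆ Ioo 0 n) (hT : T ⊆ Ioo 0 n)
    (h : cutPerm n S = cutPerm n T) : S = T := by
  have key : ∀ {A B : Finset ℕ}, A ⊆ Ioo 0 n → cutPerm n A = cutPerm n B → A ⊆ B := by
    intro A B hA hAB k hk
    obtain ⟨h0, hn⟩ := mem_Ioo.1 (hA hk)
    obtain ⟨j, rfl⟩ : ∃ j, k = j + 1 := ⟨k - 1, by omega⟩
    have h2 := congrArg (fun σ : Equiv.Perm (Fin n) => (σ ⟨j, by omega⟩).val) hAB
    simp only [cutPerm_val, cutVal, if_pos (Or.inl hk : cut n A (j + 1))] at h2
    by_contra hk'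
    rw [if_neg (by rintro (h | h); exacts [hk' h, by omega])] at h2
    have := lastCut_le (n := n) A j
    omega
  exact Subset.antisymm (key hS h) (key hT h.symm)

theorem exists_cutPerm (κ : Equiv.Perm (Fin n)) (hκ : ∀ i : Fin n, (κ i).val ≤ i.val + 1) :
    ∃ S, S ⊆ Ioo 0 n ∧ cutPerm n S = κ := by
  classical
  set S := (Ioo 0 n).filter (fun k => ∀ i : Fin n, i.val + 1 = k → (κ i).val ≠ k) with hS
  refine ⟨S, filter_subset _ _, ?_⟩
  have hcut : ∀ i : Fin n, cut n S (i.val + 1) ↔ (κ i).val ≠ i.val + 1 := by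
    intro i
    constructor
    · rintro (h | h)
      · exact (mem_filter.1 h).2 i rfl
      · have := (κ i).isLt; omega
    · intro h
      by_cases hn : i.val + 1 = n
      · exact Or.inr hn
      · refine Or.inl (mem_filter.2 ⟨mem_Ioo.2 ⟨by omega, by have := i.isLt; omega⟩, fun l hl => ?_⟩)
        rw [show l = i from Fin.ext (by omega)]
        exact h
  have hinv : ∀ k, k ≤ n → (∀ v, v ≤ k → v ≠ lastCut n S k → ∃ l : Fin n, l.val < k ∧ (κ l).val = v) ∧
      ∀ i : Fin n, i.val < k → (κ i).val = cutVal n S i.val := by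
    intro k
    induction k with
    | zero => exact fun _ => ⟨fun v h1 h2 => absurd (Nat.le_zero.1 h1) h2, fun i h => absurd h (Nat.not_lt_zero _)⟩
    | succ k ih =>
      intro hk
      obtain ⟨ih1, ih2⟩ := ih (by omega)
      have hval : (κ ⟨k, hk⟩).val = cutVal n S k := by
        unfold cutVal
        split_ifs with h
        · by_contra hne
          have h' : (κ ⟨k, hk⟩).val ≠ k + 1 := (hcut ⟨k, hk⟩).1 h
          obtain ⟨l, hl, hl'⟩ := ih1 _ (by have := hκ ⟨k, hk⟩; simp only at this; omega) hne
          exact absurd (congrArg Fin.val (κ.injective (Fin.ext hl'))) (by simp only; omega)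
        · by_contra hne
          exact h ((hcut ⟨k, hk⟩).2 hne)
      refine ⟨fun v hv hne => ?_, fun i hi => ?_⟩
      · by_cases hv' : v ≤ k ∧ v ≠ lastCut n S k
        · obtain ⟨l, hl, hl'⟩ := ih1 v hv'.1 hv'.2
          exact ⟨l, by omega, hl'⟩
        · refine ⟨⟨k, hk⟩, Nat.lt_succ_self k, ?_⟩
          rw [hval]
          rw [lastCut_succ] at hne
          unfold cutVal
          split_ifs at hne ⊢ <;> omega
      · rcases Nat.lt_succ_iff_lt_or_eq.1 hi with h | h
        · exact ih2 i h
        · rw [show i = ⟨k, hk⟩ from Fin.ext h, hval]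
  refine Equiv.ext fun i => Fin.ext ?_
  rw [cutPerm_val, ← (hinv n le_rfl).2 i i.isLt]

theorem sign_cutPerm : ∀ (d : ℕ) (S : Finset ℕ), S ⊆ Ioo 0 n → (Ioo 0 n \ S).card = d →
    ((Equiv.Perm.sign (cutPerm n S) : ℤˣ) : ℤ) = (-1) ^ d := by
  intro d
  induction d with
  | zero =>
    intro S hS h
    have hall : Ioo 0 n ⊆ S := sdiff_eq_empty_iff_subset.1 (card_eq_zero.1 h)
    have : cutPerm n S = 1 := by
      refine Equiv.ext fun i => Fin.ext ?_
      have hc : ∀ k, 1 ≤ k → k ≤ n → cut n S k := fun k h1 h2 => by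
        rcases lt_or_eq_of_le h2 with h3 | h3
        · exact Or.inl (hall (mem_Ioo.2 ⟨h1, h3⟩))
        · exact Or.inr h3
      rw [cutPerm_val, cutVal, if_pos (hc _ (by omega) (by have := i.isLt; omega))]
      rcases Nat.eq_zero_or_pos i.val with h0 | h0
      · rw [h0]; simp [lastCut, h0]
      · rw [lastCut_self (hc _ h0 i.isLt.le)]; rfl
    rw [this]; simp
  | succ d ih =>
    intro S hS h
    classical
    obtain ⟨k, hk⟩ := card_pos.1 (by omega : 0 < (Ioo 0 n \ S).card)
    obtain ⟨hk1, hkS⟩ := mem_sdiff.1 hk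
    obtain ⟨hk0, hkn⟩ := mem_Ioo.1 hk1
    obtain ⟨j, rfl⟩ : ∃ j, k = j + 1 := ⟨k - 1, by omega⟩
    have hsub : insert (j + 1) S ⊆ Ioo 0 n := insert_subset hk1 hS
    have hcard : (Ioo 0 n \ insert (j + 1) S).card = d := by
      rw [sdiff_insert, card_erase_of_mem hk, h]; rfl
    have hex : ∃ r, j < r ∧ cut n S (r + 1) := ⟨n - 1, by omega, Or.inr (by omega)⟩
    obtain ⟨r, ⟨hjr, hr⟩, hmin⟩ : ∃ r, (j < r ∧ cut n S (r + 1)) ∧ ∀ s, s < r → ¬ (j < s ∧ cut n S (s + 1)) :=
      ⟨Nat.find hex, Nat.find_spec hex, fun s hs => Nat.find_min hex hs⟩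
    have hrn : r < n := by
      by_contra hc
      exact hmin (n - 1) (by omega) ⟨by omega, Or.inr (by omega)⟩
    have hno : ∀ c, j < c → c ≤ r → ¬ cut n S c := by
      intro c h1 h2 hc
      rcases Nat.eq_or_lt_of_le (show j + 1 ≤ c from h1) with e | e
      · subst e
        rcases hc with hc | hc
        · exact hkS hc
        · omega
      · exact hmin (c - 1) (by omega) ⟨by omega, by rw [show c - 1 + 1 = c by omega]; exact hc⟩
    have hcut' : ∀ c, c ≠ j + 1 → (cut n (insert (j + 1) S) c ↔ cut n S c) := by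
      intro c hc; simp [cut, hc]
    have hlast : ∀ l, lastCut n (insert (j + 1) S) l = if j + 1 ≤ l ∧ l ≤ r then j + 1 else lastCut n S l := by
      intro l
      induction l with
      | zero => rw [if_neg (by omega)]; rfl
      | succ l ihl =>
        rw [lastCut_succ, lastCut_succ, ihl]
        by_cases e : l = j
        · subst e
          rw [if_pos (Or.inl (mem_insert_self _ _)), if_pos ⟨le_rfl, by omega⟩]
        · simp only [hcut' (l + 1) (by omega)]
          by_cases hl : j + 1 ≤ l + 1 ∧ l + 1 ≤ r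
          · rw [if_neg (hno _ (by omega) hl.2), if_pos (by omega : j + 1 ≤ l ∧ l ≤ r), if_pos hl]
          · rw [if_neg hl]
            by_cases hc : cut n S (l + 1)
            · rw [if_pos hc, if_pos hc]
            · rw [if_neg hc, if_neg hc, if_neg]
              intro h2
              exact hc (show cut n S (l + 1) by rw [show l = r by omega]; exact hr)
    have heq : cutPerm n S = cutPerm n (insert (j + 1) S) * Equiv.swap ⟨j, by omega⟩ ⟨r, hrn⟩ := by
      refine Equiv.ext fun i => Fin.ext ?_
      rw [Equiv.Perm.mul_apply, cutPerm_val, cutPerm_val]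
      rcases eq_or_ne i ⟨j, by omega⟩ with e | e
      · subst e
        rw [Equiv.swap_apply_left]
        simp only [cutVal]
        rw [if_neg (hno _ (Nat.lt_succ_self j) (by omega)), if_pos ((hcut' (r + 1) (by omega)).2 hr), hlast,
          if_pos ⟨by omega, le_rfl⟩]
      rcases eq_or_ne i ⟨r, hrn⟩ with e' | e'
      · subst e'
        rw [Equiv.swap_apply_right]
        simp only [cutVal]
        rw [if_pos hr, if_pos (Or.inl (mem_insert_self _ _)), hlast, if_neg (by omega)]
        exact lastCut_const S (by omega) fun c h1 h2 => hno c h1 h2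
      rw [Equiv.swap_apply_of_ne_of_ne e e']
      have hij : i.val ≠ j := fun h => e (Fin.ext h)
      have hir : i.val ≠ r := fun h => e' (Fin.ext h)
      unfold cutVal
      simp only [hcut' (i.val + 1) (by omega)]
      split_ifs with hc
      · rw [hlast, if_neg]
        intro h2
        exact hno (i.val + 1) (by omega) (by omega) hc
      · rfl
    rw [heq, map_mul, Units.val_mul, ih _ hsub hcard, Equiv.Perm.sign_swap (by simp [Fin.ext_iff]; omega),
      pow_succ]
    simp

end CfsgLib.GLSteinberg
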