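import Cfsg.Agent.GLSteinberg.Mobius
import Cfsg.Agent.GLSteinberg.Perms

/-!
Fixed cosets of a parabolic subgroup as chains of invariant subspaces.
-/

set_option autoImplicit false

namespace CfsgLib.GLSteinberg

open Finset Matrix CfsgLib.GLFlag

variable {F : Type*} [Field F] [Fintype F] [DecidableEq F] {n : ℕ}

theorem finrank_below' {s : ℕ} (hs : s ≤ n) : Module.finrank F (Below F n s) = s := by
  let ext : (Fin s → F) →ₗ[F] (Fin n → F) :=
    { toFun := fun v i => if h : i.val < s then v ⟨i.val, h⟩ else 0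
      map_add' := fun v w => funext fun i => by
        simp only [Pi.add_apply]
        split_ifs <;> simp
      map_smul' := fun c v => funext fun i => by
        simp only [Pi.smul_apply, smul_eq_mul, RingHom.id_apply]
        split_ifs <;> simp }
  have hinj : Function.Injective ext := fun v w h => funext fun i => by
    have := congrFun h (Fin.castLE hs i)
    simpa [ext] using this
  have hr : LinearMap.range ext = Below F n s := by
    ext v
    constructor
    · rintro ⟨w, rfl⟩ i hi
      exact dif_neg (not_lt.2 hi)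
    · intro hv
      refine ⟨fun i => v (Fin.castLE hs i), funext fun i => ?_⟩
      show dite _ _ _ = _
      split_ifs with h
      · rfl
      · exact (hv i (not_lt.1 h)).symm
  rw [← hr, LinearMap.finrank_range_of_inj hinj, Module.finrank_fin_fun]

theorem below_mono {a b : ℕ} (h : a ≤ b) : Below F n a ≤ Below F n b := fun _ hv i hi => hv i (h.trans hi)

/-- The image of a coordinate flag member. -/
noncomputable def img (h : GL (Fin n) F) (d : ℕ) : Submodule F (Fin n → F) :=
  (Below F n d).map (h : Matrix (Fin n) (Fin n) F).mulVecLin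

theorem mem_img {h : GL (Fin n) F} {d : ℕ} {w : Fin n → F} :
    w ∈ img h d ↔ ∃ v ∈ Below F n d, (h : Matrix (Fin n) (Fin n) F) *ᵥ v = w := Iff.rfl

theorem cancel (h : GL (Fin n) F) (v : Fin n → F) :
    ((h⁻¹ : GL (Fin n) F) : Matrix (Fin n) (Fin n) F) *ᵥ ((h : Matrix (Fin n) (Fin n) F) *ᵥ v) = v := by
  rw [mulVec_mulVec, ← Units.val_mul, inv_mul_cancel, Units.val_one, one_mulVec]

theorem cancel' (h : GL (Fin n) F) (v : Fin n → F) :
    (h : Matrix (Fin n) (Fin n) F) *ᵥ (((h⁻¹ : GL (Fin n) F) : Matrix (Fin n) (Fin n) F) *ᵥ v) = v := by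
  rw [mulVec_mulVec, ← Units.val_mul, mul_inv_cancel, Units.val_one, one_mulVec]

theorem finrank_img (h : GL (Fin n) F) {d : ℕ} (hd : d ≤ n) : Module.finrank F (img h d) = d := by
  rw [img, ← (Submodule.equivMapOfInjective _ ?_ _).finrank_eq, finrank_below' hd]
  exact Matrix.mulVec_injective_iff_isUnit.2 h.isUnit

theorem same_coset_iff {μ : Fin n → ℕ} (hμ : ∑ i, μ i = n) (h h' : GL (Fin n) F) :
    h⁻¹ * h' ∈ Cfsg.parabolicGL n F μ ↔ ∀ k ≤ n, img h' (psum μ k) = img h (psum μ k) := by
  have hle : ∀ a b : GL (Fin n) F, a⁻¹ * b ∈ Cfsg.parabolicGL n F μ →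
      ∀ k ≤ n, img b (psum μ k) ≤ img a (psum μ k) := by
    intro a b hab k hk w hw
    obtain ⟨v, hv, rfl⟩ := mem_img.1 hw
    refine mem_img.2 ⟨_, (mem_parabolic_iff μ hμ _).1 hab k hk v hv, ?_⟩
    rw [Units.val_mul, ← mulVec_mulVec, cancel']
  constructor
  · intro hm k hk
    exact le_antisymm (hle h h' hm k hk)
      (hle h' h (by simpa using (Cfsg.parabolicGL n F μ).inv_mem hm) k hk)
  · intro heq
    rw [mem_parabolic_iff μ hμ]
    intro k hk v hv
    obtain ⟨w, hw, hw'⟩ := mem_img.1 ((heq k hk) ▸ mem_img.2 ⟨v, hv, rfl⟩)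
    rw [Units.val_mul, ← mulVec_mulVec, ← hw', cancel]
    exact hw

theorem fixed_coset_iff {μ : Fin n → ℕ} (hμ : ∑ i, μ i = n) (x h : GL (Fin n) F) :
    x • (QuotientGroup.mk h : GL (Fin n) F ⧸ Cfsg.parabolicGL n F μ) = QuotientGroup.mk h ↔
      ∀ k ≤ n, Inv (x : Matrix (Fin n) (Fin n) F).mulVecLin (img h (psum μ k)) := by
  rw [MulAction.Quotient.smul_mk, eq_comm, QuotientGroup.eq, smul_eq_mul, mem_parabolic_iff μ hμ]
  constructor
  · intro hh k hk w hw
    obtain ⟨v, hv, rfl⟩ := mem_img.1 hw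
    refine mem_img.2 ⟨_, hh k hk v hv, ?_⟩
    rw [Units.val_mul, Units.val_mul, ← mulVec_mulVec, ← mulVec_mulVec, cancel']
    rfl
  · intro hh k hk v hv
    obtain ⟨w, hw, hw'⟩ := mem_img.1 (hh k hk _ (mem_img.2 ⟨v, hv, rfl⟩))
    rw [Units.val_mul, Units.val_mul, ← mulVec_mulVec, ← mulVec_mulVec]
    have : (x : Matrix (Fin n) (Fin n) F).mulVecLin ((h : Matrix (Fin n) (Fin n) F) *ᵥ v) =
        (x : Matrix (Fin n) (Fin n) F) *ᵥ ((h : Matrix (Fin n) (Fin n) F) *ᵥ v) := rfl
    rw [← this, ← hw', cancel]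
    exact hw

/-- An ordered basis adapted to a chain. -/
theorem exists_adapted (C : Finset (Submodule F (Fin n → F)))
    (hC : ∀ a ∈ C, ∀ b ∈ C, a ≤ b ∨ b ≤ a) :
    ∀ k ≤ n, ∃ b : Fin k → (Fin n → F), LinearIndependent F b ∧
      ∀ (l : Fin k) (U : Submodule F (Fin n → F)), U ∈ C → l.val < Module.finrank F U → b l ∈ U := by
  classical
  intro k
  induction k with
  | zero => exact fun _ => ⟨fun l => l.elim0, linearIndependent_empty_type, fun l => l.elim0⟩
  | succ k ih =>
    intro hk
    obtain ⟨b, hb1, hb2⟩ := ih (by omega)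
    set big := C.filter (fun U : Submodule F (Fin n → F) => k < Module.finrank F U) with hbig
    have hsel : ∃ T : Submodule F (Fin n → F), k < Module.finrank F T ∧ (∀ l, b l ∈ T) ∧
        ∀ U ∈ C, k < Module.finrank F U → T ≤ U := by
      rcases big.eq_empty_or_nonempty with h | h
      · refine ⟨⊤, by rw [finrank_top, Module.finrank_fin_fun]; omega, fun l => trivial, fun U hU hU' => ?_⟩
        have : U ∈ big := mem_filter.2 ⟨hU, hU'⟩
        rw [h] at this
        simp at this
      · obtain ⟨T, hT, hmin⟩ := big.exists_minimal h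
        obtain ⟨hTC, hTk⟩ := mem_filter.1 hT
        exact ⟨T, hTk, fun l => hb2 l T hTC (lt_trans l.isLt hTk),
          fun U hU hU' => (hC T hTC U hU).elim id fun h' => hmin (mem_filter.2 ⟨hU, hU'⟩) h'⟩
    obtain ⟨T, hTk, hTb, hTmin⟩ := hsel
    have hnle : ¬ T ≤ Submodule.span F (Set.range b) := by
      intro h
      have := (Submodule.finrank_mono h).trans (finrank_range_le_card b)
      simp at this
      omega
    obtain ⟨v, hv, hv'⟩ := SetLike.not_le_iff_exists.1 hnle
    refine ⟨Fin.snoc b v, linearIndependent_finSnoc.2 ⟨hb1, hv'⟩, fun l U hU hl => ?_⟩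
    refine Fin.lastCases ?_ (fun l => ?_) l hl
    · intro hl
      rw [Fin.snoc_last]
      exact hTmin U hU (by simpa using hl) hv
    · intro hl
      rw [Fin.snoc_castSucc]
      exact hb2 l U hU (by simpa using hl)

theorem exists_frame' (C : Finset (Submodule F (Fin n → F))) (hC : ∀ a ∈ C, ∀ b ∈ C, a ≤ b ∨ b ≤ a) :
    ∃ h : GL (Fin n) F, ∀ U ∈ C, img h (Module.finrank F U) = U := by
  obtain ⟨b, hb1, hb2⟩ := exists_adapted C hC n le_rfl
  set M : Matrix (Fin n) (Fin n) F := Matrix.of fun i j => b j i with hM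
  have hU : IsUnit M := Matrix.linearIndependent_cols_iff_isUnit.1 hb1
  refine ⟨hU.unit, fun U hUC => ?_⟩
  have hle : Module.finrank F U ≤ n := (Submodule.finrank_le U).trans_eq (Module.finrank_fin_fun F)
  refine Submodule.eq_of_le_of_finrank_eq ?_ (finrank_img _ hle)
  intro w hw
  obtain ⟨v, hv, rfl⟩ := mem_img.1 hw
  rw [IsUnit.unit_spec, Matrix.mulVec_eq_sum]
  refine Submodule.sum_mem _ fun j _ => ?_
  by_cases hj : Module.finrank F U ≤ j.val
  · rw [hv j hj]; simp
  · have e : M.transpose j = b j := rfl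
    rw [e]
    simpa using U.smul_mem (v j) (hb2 j U hUC (not_le.1 hj))

theorem chain_eq_of_finrank {f : Module.End F (Fin n → F)} {W : Submodule F (Fin n → F)}
    {C : Finset (Submodule F (Fin n → F))} (hC : C ∈ tails f W) {a b : Submodule F (Fin n → F)}
    (ha : a ∈ C) (hb : b ∈ C) (h : Module.finrank F a = Module.finrank F b) : a = b :=
  ((mem_tails.1 hC).2 a ha b hb).elim (fun h' => Submodule.eq_of_le_of_finrank_eq h' h)
    fun h' => (Submodule.eq_of_le_of_finrank_eq h' h.symm).symm

open scoped Classical in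
theorem card_fixed_chains {S : Finset ℕ} (hS : S ⊆ Ioo 0 n) (μ : Fin n → ℕ) (hμ : ∑ i, μ i = n)
    (hps : ∀ k ≤ n, psum μ k = lastCut n S k) (x : GL (Fin n) F) :
    Nat.card (MulAction.fixedBy (GL (Fin n) F ⧸ Cfsg.parabolicGL n F μ) x) =
      ((tails (x : Matrix (Fin n) (Fin n) F).mulVecLin ⊤).filter
        fun C => C.image (fun U : Submodule F (Fin n → F) => Module.finrank F U) = S).card := by
  set f : Module.End F (Fin n → F) := (x : Matrix (Fin n) (Fin n) F).mulVecLin with hf
  rw [← Nat.card_eq_finsetCard]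
  have hSn : ∀ d ∈ S, 0 < d ∧ d < n := fun d hd => mem_Ioo.1 (hS hd)
  have hpsd : ∀ d ∈ S, psum μ d = d := fun d hd => by
    rw [hps d (hSn d hd).2.le]; exact lastCut_self (Or.inl hd)
  have hfix : ∀ q : MulAction.fixedBy (GL (Fin n) F ⧸ Cfsg.parabolicGL n F μ) x,
      ∀ k ≤ n, Inv f (img q.1.out (psum μ k)) := by
    intro q
    refine (fixed_coset_iff hμ x q.1.out).1 ?_
    rw [QuotientGroup.out_eq']
    exact q.2
  have hmem : ∀ q : MulAction.fixedBy (GL (Fin n) F ⧸ Cfsg.parabolicGL n F μ) x,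
      S.image (img q.1.out) ∈ (tails f ⊤).filter fun C => C.image (fun U : Submodule F (Fin n → F) => Module.finrank F U) = S := by
    intro q
    refine mem_filter.2 ⟨mem_tails.2 ⟨fun a ha => ?_, fun a ha b hb => ?_⟩, ?_⟩
    · obtain ⟨d, hd, rfl⟩ := mem_image.1 ha
      have h1 := hfix q d (hSn d hd).2.le
      rw [hpsd d hd] at h1
      have h2 := finrank_img q.1.out (hSn d hd).2.le
      refine ⟨h1, fun h => ?_, lt_top_iff_ne_top.2 fun h => ?_⟩
      · rw [h, finrank_bot] at h2; have := (hSn d hd).1; omega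
      · rw [h, finrank_top, Module.finrank_fin_fun] at h2; have := (hSn d hd).2; omega
    · obtain ⟨d, hd, rfl⟩ := mem_image.1 ha
      obtain ⟨e, he, rfl⟩ := mem_image.1 hb
      rcases le_total d e with h | h
      · exact Or.inl (Submodule.map_mono (below_mono h))
      · exact Or.inr (Submodule.map_mono (below_mono h))
    · rw [image_image]
      conv_rhs => rw [← image_id (s := S)]
      exact image_congr fun d hd => finrank_img q.1.out (hSn d hd).2.le
  have hkey : ∀ h h' : GL (Fin n) F, (∀ d ∈ S, img h' d = img h d) → h⁻¹ * h' ∈ Cfsg.parabolicGL n F μ := by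
    intro h h' hd
    refine (same_coset_iff hμ h h').2 fun k hk => ?_
    rw [hps k hk]
    rcases lastCut_cut (n := n) S k with h0 | h0 | h0
    · rw [h0]
      exact (Submodule.eq_bot_iff _).2 (fun w hw => by
        obtain ⟨v, hv, rfl⟩ := mem_img.1 hw
        rw [show v = 0 from funext fun i => hv i (Nat.zero_le _)]; simp) |>.trans
        ((Submodule.eq_bot_iff _).2 (fun w hw => by
        obtain ⟨v, hv, rfl⟩ := mem_img.1 hw
        rw [show v = 0 from funext fun i => hv i (Nat.zero_le _)]; simp)).symm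
    · exact hd _ h0
    · rw [h0]
      have htop : ∀ g : GL (Fin n) F, img g n = ⊤ := fun g =>
        Submodule.eq_top_of_finrank_eq (by rw [finrank_img g le_rfl, Module.finrank_fin_fun])
      rw [htop, htop]
  refine Nat.card_congr (Equiv.ofBijective (fun q => ⟨S.image (img q.1.out), hmem q⟩) ⟨?_, ?_⟩)
  · intro q q' h
    have himg : S.image (img q.1.out) = S.image (img q'.1.out) := congrArg Subtype.val h
    refine Subtype.ext ?_
    rw [← QuotientGroup.out_eq' q.1, ← QuotientGroup.out_eq' q'.1]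
    refine QuotientGroup.eq.2 (hkey _ _ fun d hd => ?_)
    obtain ⟨e, he, he'⟩ := mem_image.1 (himg ▸ mem_image_of_mem (img q.1.out) hd)
    have h2 := finrank_img q'.1.out (hSn e he).2.le
    rw [he', finrank_img q.1.out (hSn d hd).2.le] at h2
    subst h2
    exact he'
  · rintro ⟨C, hC⟩
    obtain ⟨hCt, hCS⟩ := mem_filter.1 hC
    obtain ⟨h, hh⟩ := exists_frame' C (mem_tails.1 hCt).2
    have hdC : ∀ d ∈ S, img h d ∈ C := by
      intro d hd
      rw [← hCS] at hd
      obtain ⟨U, hU, rfl⟩ := mem_image.1 hd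
      rw [hh U hU]; exact hU
    have hfx : (QuotientGroup.mk h : GL (Fin n) F ⧸ Cfsg.parabolicGL n F μ) ∈ MulAction.fixedBy _ x := by
      refine (fixed_coset_iff hμ x h).2 fun k hk => ?_
      rw [hps k hk]
      rcases lastCut_cut (n := n) S k with h0 | h0 | h0
      · rw [h0]
        intro w hw
        obtain ⟨v, hv, rfl⟩ := mem_img.1 hw
        rw [show v = 0 from funext fun i => hv i (Nat.zero_le _)]
        simp
      · exact ((mem_tails.1 hCt).1 _ (hdC _ h0)).1
      · rw [h0]
        intro w _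
        have htop : img h n = ⊤ :=
          Submodule.eq_top_of_finrank_eq (by rw [finrank_img h le_rfl, Module.finrank_fin_fun])
        rw [htop]; trivial
    refine ⟨⟨_, hfx⟩, Subtype.ext ?_⟩
    have hc : (QuotientGroup.mk h : GL (Fin n) F ⧸ Cfsg.parabolicGL n F μ).out⁻¹ * h ∈ Cfsg.parabolicGL n F μ :=
      QuotientGroup.eq.1 (QuotientGroup.out_eq' _)
    have hd' := (same_coset_iff hμ _ _).1 hc
    show S.image (img (QuotientGroup.mk h : GL (Fin n) F ⧸ Cfsg.parabolicGL n F μ).out) = C
    ext U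
    constructor
    · intro hU
      obtain ⟨d, hd, rfl⟩ := mem_image.1 hU
      have := hd' d (hSn d hd).2.le
      rw [hpsd d hd] at this
      rw [← this]
      exact hdC d hd
    · intro hU
      have hd : Module.finrank F U ∈ S := hCS ▸ mem_image_of_mem _ hU
      have := hd' _ (hSn _ hd).2.le
      rw [hpsd _ hd, hh U hU] at this
      exact mem_image.2 ⟨_, hd, this.symm⟩

end CfsgLib.GLSteinberg
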