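import Cfsg.Agent.GLSteinberg.Simple

/-!
Counting equivariant maps into a minimal invariant subspace, and complements of it.
-/

set_option autoImplicit false

namespace CfsgLib.GLSteinberg

open Polynomial UniqueFactorizationMonoid

variable {F : Type*} [Field F] {V : Type*} [AddCommGroup V] [Module F V] [FiniteDimensional F V]
  {f : Module.End F V}

/-- Maps commuting with `f`. -/
def IsEquiv (f : Module.End F V) {U T : Submodule F V} (φ : U →ₗ[F] T) : Prop :=
  ∀ u w : U, (w : V) = f u → (φ w : V) = f (φ u)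

theorem IsEquiv.aeval {U T : Submodule F V} (hU : Inv f U) {φ : U →ₗ[F] T} (hφ : IsEquiv f φ) (p : F[X]) :
    ∀ u w : U, (w : V) = Polynomial.aeval f p (u : V) → (φ w : V) = Polynomial.aeval f p (φ u : V) := by
  induction p using Polynomial.induction_on with
  | C a =>
    intro u w hw
    rw [aeval_C, Module.algebraMap_end_apply] at hw ⊢
    rw [show w = a • u from Subtype.ext hw, map_smul, Submodule.coe_smul]
  | add p q hp hq =>
    intro u w hw
    rw [map_add, LinearMap.add_apply] at hw ⊢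
    rw [← hp u ⟨_, aeval_mem hU p u u.2⟩ rfl, ← hq u ⟨_, aeval_mem hU q u u.2⟩ rfl, ← Submodule.coe_add,
      ← map_add]
    congr 2
    exact Subtype.ext hw
  | monomial n a ih =>
    intro u w hw
    have e : ∀ x : V, Polynomial.aeval f (C a * X ^ (n + 1)) x = Polynomial.aeval f (C a * X ^ n) (f x) := fun x => by
      rw [pow_succ, ← mul_assoc, map_mul _ (C a * X ^ n), aeval_X, Module.End.mul_apply]
    rw [e] at hw ⊢
    rw [← hφ u ⟨f u, hU u u.2⟩ rfl]
    exact ih _ _ hw

/-- The number of equivariant maps. -/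
noncomputable def homCount (f : Module.End F V) (U T : Submodule F V) : ℕ :=
  Nat.card {φ : U →ₗ[F] T // IsEquiv f φ}

/-- The decomposition of an internal direct sum. -/
noncomputable def prodEquiv {A B W : Submodule F V} (hd : A ⊓ B = ⊥) (hs : A ⊔ B = W) : (A × B) ≃ₗ[F] W :=
  LinearEquiv.ofBijective
    ((Submodule.inclusion (hs ▸ le_sup_left : A ≤ W)).coprod (Submodule.inclusion (hs ▸ le_sup_right : B ≤ W))) <| by
  constructor
  · rintro ⟨a, b⟩ ⟨a', b'⟩ h
    have h' : (a : V) + b = a' + b' := congrArg Subtype.val h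
    have h1 : (a : V) - a' = b' - b := by rw [sub_eq_sub_iff_add_eq_add, h', add_comm]
    have h2 : (a : V) - a' ∈ A ⊓ B := ⟨A.sub_mem a.2 a'.2, h1 ▸ B.sub_mem b'.2 b.2⟩
    rw [hd, Submodule.mem_bot] at h2
    have ha : (a : V) = a' := sub_eq_zero.1 h2
    rw [ha, add_right_inj] at h'
    exact Prod.ext (Subtype.ext ha) (Subtype.ext h')
  · rintro ⟨w, hw⟩
    rw [← hs] at hw
    obtain ⟨a, ha, b, hb, rfl⟩ := Submodule.mem_sup.1 hw
    exact ⟨(⟨a, ha⟩, ⟨b, hb⟩), rfl⟩

theorem coe_prodEquiv {A B W : Submodule F V} (hd : A ⊓ B = ⊥) (hs : A ⊔ B = W) (z : A × B) :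
    (prodEquiv hd hs z : V) = (z.1 : V) + z.2 := rfl

theorem cp_split {A B W : Submodule F V} (hA : Inv f A) (hB : Inv f B) (hd : A ⊓ B = ⊥) (hs : A ⊔ B = W) :
    cp f W = cp f A * cp f B := by
  have hW : Inv f W := hs ▸ inv_sup hA hB
  rw [cp_eq hA, cp_eq hB, cp_eq hW, ← LinearMap.charpoly_prodMap, ← (prodEquiv hd hs).charpoly_conj]
  congr 1
  refine LinearMap.ext fun w => ?_
  obtain ⟨z, rfl⟩ := (prodEquiv hd hs).surjective w
  apply Subtype.ext
  rw [LinearEquiv.conj_apply_apply, LinearEquiv.symm_apply_apply, coe_prodEquiv]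
  show f ((z.1 : V) + z.2) = f z.1 + f z.2
  exact map_add _ _ _

theorem homCount_split {A B W : Submodule F V} (T : Submodule F V) (hA : Inv f A) (hB : Inv f B)
    (hd : A ⊓ B = ⊥) (hs : A ⊔ B = W) : homCount f W T = homCount f A T * homCount f B T := by
  unfold homCount
  rw [← Nat.card_prod]
  refine Nat.card_congr
    { toFun := fun φ =>
        (⟨φ.1 ∘ₗ Submodule.inclusion (hs ▸ le_sup_left : A ≤ W), fun u w h => φ.2 _ _ h⟩,
         ⟨φ.1 ∘ₗ Submodule.inclusion (hs ▸ le_sup_right : B ≤ W), fun u w h => φ.2 _ _ h⟩)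
      invFun := fun p => ⟨(p.1.1.coprod p.2.1) ∘ₗ (prodEquiv hd hs).symm.toLinearMap, ?_⟩
      left_inv := ?_
      right_inv := ?_ }
  · intro u w h
    obtain ⟨z, rfl⟩ := (prodEquiv hd hs).surjective u
    have e : w = prodEquiv hd hs (⟨f z.1, hA _ z.1.2⟩, ⟨f z.2, hB _ z.2.2⟩) :=
      Subtype.ext (by rw [h, coe_prodEquiv, coe_prodEquiv]; exact map_add f _ _)
    subst e
    simp only [LinearMap.comp_apply, LinearEquiv.coe_coe, LinearEquiv.symm_apply_apply, LinearMap.coprod_apply,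
      Submodule.coe_add, map_add]
    rw [p.1.2 z.1 ⟨f z.1, hA _ z.1.2⟩ rfl, p.2.2 z.2 ⟨f z.2, hB _ z.2.2⟩ rfl]
  · intro φ
    refine Subtype.ext (LinearMap.ext fun w => ?_)
    obtain ⟨z, rfl⟩ := (prodEquiv hd hs).surjective w
    simp only [LinearMap.comp_apply, LinearEquiv.coe_coe, LinearEquiv.symm_apply_apply, LinearMap.coprod_apply]
    rw [← map_add]
    exact congrArg φ.1 (Subtype.ext rfl)
  · rintro ⟨⟨p, hp⟩, ⟨q, hq⟩⟩
    refine Prod.ext (Subtype.ext (LinearMap.ext fun a => ?_)) (Subtype.ext (LinearMap.ext fun b => ?_))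
    · have e : Submodule.inclusion (hs ▸ le_sup_left : A ≤ W) a = prodEquiv hd hs (a, 0) :=
        Subtype.ext (by rw [coe_prodEquiv]; simp)
      simp [e]
    · have e : Submodule.inclusion (hs ▸ le_sup_right : B ≤ W) b = prodEquiv hd hs (0, b) :=
        Subtype.ext (by rw [coe_prodEquiv]; simp)
      simp [e]

variable [Fintype F] [DecidableEq F]

theorem homCount_bot (T : Submodule F V) : homCount f ⊥ T = 1 := by
  unfold homCount
  rw [Nat.card_eq_one_iff_unique]
  refine ⟨⟨fun a b => Subtype.ext (LinearMap.ext fun x => ?_)⟩, ⟨⟨0, fun u w h => by simp⟩⟩⟩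
  rw [Subsingleton.elim x 0, map_zero, map_zero]

theorem homCount_simple {A L : Submodule F V} (hA : Simple f A) (hL : Simple f L) :
    homCount f A L = Fintype.card F ^ ((cp f L).natDegree *
      (normalizedFactors (cp f A)).count (cp f L)) := by
  classical
  obtain ⟨v, hv, hv0⟩ := (Submodule.ne_bot_iff A).1 hA.2.1
  have hnA : normalizedFactors (cp f A) = {cp f A} := by
    rw [normalizedFactors_irreducible hA.irreducible, (cp_monic hA.1).normalize_eq_self]
  have hker : ∀ φ ψ : {φ : A →ₗ[F] L // IsEquiv f φ}, φ.1 ⟨v, hv⟩ = ψ.1 ⟨v, hv⟩ → φ = ψ := by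
    intro φ ψ h
    refine Subtype.ext (LinearMap.ext fun a => Subtype.ext ?_)
    have ha : (a : V) ∈ LinearMap.range (evalAt f v) := hA.le_range hv hv0 ▸ a.2
    obtain ⟨p, hp⟩ := ha
    have ea : a = ⟨aeval f p v, aeval_mem hA.1 p v hv⟩ := Subtype.ext hp.symm
    rw [ea, φ.2.aeval hA.1 p ⟨v, hv⟩ _ rfl, ψ.2.aeval hA.1 p ⟨v, hv⟩ _ rfl, h]
  have himg : ∀ φ : {φ : A →ₗ[F] L // IsEquiv f φ}, aeval f (cp f A) (φ.1 ⟨v, hv⟩ : V) = 0 := by
    intro φ
    rw [← φ.2.aeval hA.1 (cp f A) ⟨v, hv⟩ 0 (aeval_cp hA.1 hv).symm, map_zero, Submodule.coe_zero]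
  have hsurj : ∀ w : L, aeval f (cp f A) (w : V) = 0 →
      ∃ φ : {φ : A →ₗ[F] L // IsEquiv f φ}, φ.1 ⟨v, hv⟩ = w := by
    intro w hw
    let ev : F[X] →ₗ[F] A := (evalAt f v).codRestrict A fun p => aeval_mem hA.1 p v hv
    let ew : F[X] →ₗ[F] L := (evalAt f (w : V)).codRestrict L fun p => aeval_mem hL.1 p _ w.2
    have hev : Function.Surjective ev := by
      intro a
      have ha : (a : V) ∈ LinearMap.range (evalAt f v) := hA.le_range hv hv0 ▸ a.2
      obtain ⟨p, hp⟩ := ha
      exact ⟨p, Subtype.ext hp⟩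
    have hk : LinearMap.ker ev ≤ LinearMap.ker ew := by
      intro p hp
      have hp' : aeval f p v = 0 := congrArg Subtype.val (LinearMap.mem_ker.1 hp)
      obtain ⟨c, rfl⟩ := hA.natDegree hv hv0 hp'
      refine LinearMap.mem_ker.2 (Subtype.ext ?_)
      show aeval f (cp f A * c) (w : V) = 0
      rw [mul_comm, map_mul, Module.End.mul_apply, hw, map_zero]
    let φ : A →ₗ[F] L := (LinearMap.ker ev).liftQ ew hk ∘ₗ
      (LinearMap.quotKerEquivOfSurjective ev hev).symm.toLinearMap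
    have hφ : ∀ p, φ (ev p) = ew p := by
      intro p
      simp only [φ, LinearMap.comp_apply, LinearEquiv.coe_coe]
      rw [show (LinearMap.quotKerEquivOfSurjective ev hev).symm (ev p) = Submodule.Quotient.mk p from
        (LinearMap.quotKerEquivOfSurjective ev hev).symm_apply_eq.2 rfl, Submodule.liftQ_apply]
    refine ⟨⟨φ, ?_⟩, ?_⟩
    · intro u u' h
      obtain ⟨p, rfl⟩ := hev u
      have e : u' = ev (X * p) := Subtype.ext (h.trans (by
        show f (aeval f p v) = aeval f (X * p) v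
        rw [map_mul, aeval_X, Module.End.mul_apply]))
      rw [e, hφ, hφ]
      show aeval f (X * p) (w : V) = f (aeval f p (w : V))
      rw [map_mul, aeval_X, Module.End.mul_apply]
    · have e : (⟨v, hv⟩ : A) = ev 1 := Subtype.ext (by show v = aeval f (1 : F[X]) v; simp)
      rw [e]
      show φ (ev 1) = w
      rw [hφ]
      exact Subtype.ext (by show aeval f (1 : F[X]) (w : V) = w; simp)
  have hcard : homCount f A L = Nat.card {w : L // aeval f (cp f A) (w : V) = 0} := by
    refine Nat.card_congr (Equiv.ofBijective (fun φ => ⟨φ.1 ⟨v, hv⟩, himg φ⟩) ⟨?_, ?_⟩)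
    · intro φ ψ h; exact hker φ ψ (congrArg Subtype.val h)
    · rintro ⟨w, hw⟩
      obtain ⟨φ, hφ⟩ := hsurj w hw
      exact ⟨φ, Subtype.ext hφ⟩
  rw [hcard, hnA]
  by_cases hg : cp f A = cp f L
  · rw [hg, Multiset.count_singleton_self, mul_one, cp_natDegree hL.1,
      Nat.card_congr (Equiv.subtypeUnivEquiv fun w : L => aeval_cp hL.1 w.2),
      Module.natCard_eq_pow_finrank (K := F), Nat.card_eq_fintype_card]
  · rw [Multiset.count_eq_zero.2 (fun h => hg (Multiset.mem_singleton.1 h).symm), mul_zero, pow_zero,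
      Nat.card_eq_one_iff_unique]
    refine ⟨⟨fun a b => Subtype.ext ?_⟩, ⟨⟨0, by simp⟩⟩⟩
    have h0 : ∀ w : L, aeval f (cp f A) (w : V) = 0 → w = 0 := by
      intro w hw
      by_contra hw0
      have hdvd := hL.natDegree w.2 (fun h => hw0 (Subtype.ext h)) hw
      exact hg (eq_of_monic_of_associated (cp_monic hA.1) (cp_monic hL.1)
        (hL.irreducible.associated_of_dvd hA.irreducible hdvd).symm)
    rw [h0 a.1 a.2, h0 b.1 b.2]

end CfsgLib.GLSteinberg
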