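import Cfsg.Agent.GLSteinberg.Hom

/-!
The Moebius function of the lattice of invariant subspaces of a semisimple endomorphism.
-/

set_option autoImplicit false

namespace CfsgLib.GLSteinberg

open Polynomial UniqueFactorizationMonoid Finset

variable {F : Type*} [Field F] [Fintype F] [DecidableEq F] {V : Type*} [AddCommGroup V] [Module F V]
  [FiniteDimensional F V]

open scoped Classical in
/-- The invariant subspaces. -/
noncomputable def invs (f : Module.End F V) : Finset (Submodule F V) :=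
  haveI : Finite V := Module.finite_of_finite F
  (Set.toFinite {U : Submodule F V | Inv f U}).toFinset

theorem mem_invs {f : Module.End F V} {U : Submodule F V} : U ∈ invs f ↔ Inv f U := by
  classical simp [invs]

open scoped Classical in
/-- Chains of nonzero invariant subspaces strictly below `W`. -/
noncomputable def tails (f : Module.End F V) (W : Submodule F V) : Finset (Finset (Submodule F V)) :=
  ((invs f).filter fun U => U ≠ ⊥ ∧ U < W).powerset.filter fun C => ∀ a ∈ C, ∀ b ∈ C, a ≤ b ∨ b ≤ a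

theorem mem_tails {f : Module.End F V} {W : Submodule F V} {C : Finset (Submodule F V)} :
    C ∈ tails f W ↔ (∀ a ∈ C, Inv f a ∧ a ≠ ⊥ ∧ a < W) ∧ ∀ a ∈ C, ∀ b ∈ C, a ≤ b ∨ b ≤ a := by
  classical
  simp [tails, Finset.subset_iff, mem_invs]

open scoped Classical in
/-- The Moebius function, as a signed chain count. -/
noncomputable def mu (f : Module.End F V) (W : Submodule F V) : ℤ :=
  if W = ⊥ then 1 else -∑ C ∈ tails f W, (-1) ^ C.card

theorem sup_mem {W : Submodule F V} {f : Module.End F V} {C : Finset (Submodule F V)} (hC : C ∈ tails f W)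
    (hne : C.Nonempty) : C.sup id ∈ C ∧ ∀ a ∈ C, a ≤ C.sup id := by
  obtain ⟨m, hm, hmax⟩ := C.exists_maximal hne
  have hle : ∀ a ∈ C, a ≤ m := fun a ha => (((mem_tails.1 hC).2 a ha m hm)).elim id fun h => hmax ha h
  have e : C.sup id = m := le_antisymm (Finset.sup_le hle) (Finset.le_sup (f := id) hm)
  exact e.symm ▸ ⟨hm, hle⟩

open scoped Classical in
theorem sum_tails {f : Module.End F V} {W : Submodule F V} (hne : W ≠ ⊥) :
    ∑ C ∈ tails f W, (-1 : ℤ) ^ C.card = ∑ U ∈ (invs f).filter (fun U => U < W), mu f U := by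
  have hmap : ∀ C ∈ tails f W, C.sup id ∈ (invs f).filter (fun U => U < W) := by
    intro C hC
    rcases C.eq_empty_or_nonempty with rfl | hn
    · rw [Finset.sup_empty]
      exact mem_filter.2 ⟨mem_invs.2 (inv_bot f), bot_lt_iff_ne_bot.2 hne⟩
    · have h := (mem_tails.1 hC).1 _ (sup_mem hC hn).1
      exact mem_filter.2 ⟨mem_invs.2 h.1, h.2.2⟩
  rw [← Finset.sum_fiberwise_of_maps_to hmap]
  refine Finset.sum_congr rfl fun U hU => ?_
  obtain ⟨hUi, hUW⟩ := mem_filter.1 hU
  unfold mu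
  by_cases hU0 : U = ⊥
  · subst hU0
    rw [if_pos rfl, Finset.sum_eq_single (∅ : Finset (Submodule F V))]
    · simp
    · intro C hC hCne
      obtain ⟨hC, he⟩ := mem_filter.1 hC
      have hn := Finset.nonempty_iff_ne_empty.2 hCne
      exact absurd he ((mem_tails.1 hC).1 _ (sup_mem hC hn).1).2.1
    · intro h
      exact absurd (mem_filter.2 ⟨mem_tails.2 ⟨by simp, by simp⟩, by simp⟩) h
  · rw [if_neg hU0, ← Finset.sum_neg_distrib]
    refine Finset.sum_bij' (fun C _ => C.erase U) (fun C _ => insert U C) ?_ ?_ ?_ ?_ ?_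
    · intro C hC
      obtain ⟨hC, he⟩ := mem_filter.1 hC
      have hn : C.Nonempty := Finset.nonempty_iff_ne_empty.2 fun h => hU0 (by rw [← he, h, Finset.sup_empty])
      obtain ⟨h1, h2⟩ := sup_mem hC hn
      obtain ⟨h3, h4⟩ := mem_tails.1 hC
      refine mem_tails.2 ⟨fun a ha => ?_, fun a ha b hb => h4 a (mem_of_mem_erase ha) b (mem_of_mem_erase hb)⟩
      obtain ⟨ha1, ha2⟩ := mem_erase.1 ha
      exact ⟨(h3 a ha2).1, (h3 a ha2).2.1, lt_of_le_of_ne (he ▸ h2 a ha2) ha1⟩
    · intro C hC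
      obtain ⟨h3, h4⟩ := mem_tails.1 hC
      refine mem_filter.2 ⟨mem_tails.2 ⟨fun a ha => ?_, fun a ha b hb => ?_⟩, ?_⟩
      · rcases mem_insert.1 ha with rfl | ha
        · exact ⟨mem_invs.1 hUi, hU0, hUW⟩
        · exact ⟨(h3 a ha).1, (h3 a ha).2.1, (h3 a ha).2.2.trans hUW⟩
      · rcases mem_insert.1 ha with e1 | e1 <;> rcases mem_insert.1 hb with e2 | e2
        · exact Or.inl (e1.trans e2.symm).le
        · exact Or.inr (e1 ▸ (h3 b e2).2.2.le)
        · exact Or.inl (e2 ▸ (h3 a e1).2.2.le)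
        · exact h4 a e1 b e2
      · rw [Finset.sup_insert]
        exact sup_eq_left.2 (Finset.sup_le fun a ha => (h3 a ha).2.2.le)
    · intro C hC
      obtain ⟨hC, he⟩ := mem_filter.1 hC
      have hn : C.Nonempty := Finset.nonempty_iff_ne_empty.2 fun h => hU0 (by rw [← he, h, Finset.sup_empty])
      exact insert_erase (he ▸ (sup_mem hC hn).1)
    · intro C hC
      exact erase_insert fun h => lt_irrefl _ ((mem_tails.1 hC).1 U h).2.2
    · intro C hC
      obtain ⟨hC, he⟩ := mem_filter.1 hC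
      have hn : C.Nonempty := Finset.nonempty_iff_ne_empty.2 fun h => hU0 (by rw [← he, h, Finset.sup_empty])
      rw [← card_erase_add_one (he ▸ (sup_mem hC hn).1), pow_succ]
      ring

open scoped Classical in
theorem sum_le {f : Module.End F V} {W : Submodule F V} (hW : Inv f W) (hne : W ≠ ⊥) :
    ∑ U ∈ (invs f).filter (fun U => U ≤ W), mu f U = 0 := by
  have e : (invs f).filter (fun U => U ≤ W) = insert W ((invs f).filter fun U => U < W) := by
    ext U
    simp only [mem_filter, mem_insert, mem_invs]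
    constructor
    · rintro ⟨h1, h2⟩
      rcases eq_or_lt_of_le h2 with h | h
      · exact Or.inl h
      · exact Or.inr ⟨h1, h⟩
    · rintro (rfl | ⟨h1, h2⟩)
      · exact ⟨hW, le_rfl⟩
      · exact ⟨h1, h2.le⟩
  rw [e, sum_insert (by simp), ← sum_tails hne, mu, if_neg hne, neg_add_cancel]

open scoped Classical in
theorem weisner {f : Module.End F V} {L : Submodule F V} (hL : Inv f L) (hL0 : L ≠ ⊥) :
    ∀ W : Submodule F V, Inv f W → L ≤ W →
      ∑ U ∈ (invs f).filter (fun U => U ≤ W ∧ U ⊔ L = W), mu f U = 0 := by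
  intro W
  induction W using WellFoundedLT.induction with
  | _ W ih =>
    intro hW hLW
    have hne : W ≠ ⊥ := fun h => hL0 (le_bot_iff.1 (h ▸ hLW))
    have h := sum_le hW hne
    have hmap : ∀ U ∈ (invs f).filter (fun U => U ≤ W), U ⊔ L ∈ (invs f).filter (fun X => L ≤ X ∧ X ≤ W) := by
      intro U hU
      obtain ⟨h1, h2⟩ := mem_filter.1 hU
      exact mem_filter.2 ⟨mem_invs.2 (inv_sup (mem_invs.1 h1) hL), le_sup_right, sup_le h2 hLW⟩
    rw [← Finset.sum_fiberwise_of_maps_to hmap, Finset.sum_eq_single W] at h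
    · rw [Finset.filter_filter] at h
      exact h
    · intro X hX hXW
      obtain ⟨h1, h2, h3⟩ := mem_filter.1 hX
      have := ih X (lt_of_le_of_ne h3 hXW) (mem_invs.1 h1) h2
      rw [← this, Finset.filter_filter]
      refine Finset.sum_congr (Finset.filter_congr fun U _ => ?_) fun _ _ => rfl
      exact ⟨fun h => ⟨h.2 ▸ le_sup_left, h.2⟩, fun h => ⟨h.1.trans h3, h.2⟩⟩
    · intro hX
      exact absurd (mem_filter.2 ⟨mem_invs.2 hW, hLW, le_rfl⟩) hX

open scoped Classical in
/-- Complements of `L` inside `W`. -/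
noncomputable def compls (f : Module.End F V) (L W : Submodule F V) : Finset (Submodule F V) :=
  (invs f).filter fun U => L ⊓ U = ⊥ ∧ L ⊔ U = W

theorem mem_compls {f : Module.End F V} {L W U : Submodule F V} :
    U ∈ compls f L W ↔ Inv f U ∧ L ⊓ U = ⊥ ∧ L ⊔ U = W := by
  classical simp [compls, mem_invs]

theorem mu_eq_neg {f : Module.End F V} {L W : Submodule F V} (hL : Simple f L) (hW : Inv f W) (hLW : L ≤ W) :
    mu f W = -∑ U ∈ compls f L W, mu f U := by
  classical
  have h := weisner hL.1 hL.2.1 W hW hLW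
  have e : (invs f).filter (fun U => U ≤ W ∧ U ⊔ L = W) = insert W (compls f L W) := by
    ext U
    simp only [mem_filter, mem_insert, mem_invs, mem_compls]
    constructor
    · rintro ⟨h1, h2, h3⟩
      rcases hL.2.2 _ (inv_inf hL.1 h1) inf_le_left with h0 | h0
      · exact Or.inr ⟨h1, h0, by rw [sup_comm]; exact h3⟩
      · refine Or.inl ?_
        rw [← h3, sup_eq_left.2 (inf_eq_left.1 h0)]
    · rintro (rfl | ⟨h1, h2, h3⟩)
      · exact ⟨hW, le_rfl, sup_eq_left.2 hLW⟩
      · exact ⟨h1, h3 ▸ le_sup_right, by rw [sup_comm]; exact h3⟩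
  rw [e, sum_insert] at h
  · linarith
  · intro hc
    rw [mem_compls, inf_eq_left.2 hLW] at hc
    exact hL.2.1 hc.2.1

/-- A semisimple endomorphism: every invariant subspace has an invariant complement. -/
def Compl (f : Module.End F V) : Prop := ∀ U, Inv f U → ∃ U', Inv f U' ∧ IsCompl U U'

theorem exists_compl {f : Module.End F V} (hf : Compl f) {L W : Submodule F V} (hL : Inv f L) (hW : Inv f W)
    (hLW : L ≤ W) : ∃ U, U ∈ compls f L W := by
  obtain ⟨C, hC, hc⟩ := hf L hL
  refine ⟨C ⊓ W, mem_compls.2 ⟨inv_inf hC hW, ?_, ?_⟩⟩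
  · rw [← inf_assoc, hc.inf_eq_bot, bot_inf_eq]
  · rw [← sup_inf_assoc_of_le C hLW, hc.sup_eq_top, top_inf_eq]

theorem homCount_eq {f : Module.End F V} (hf : Compl f) {L : Submodule F V} (hL : Simple f L) :
    ∀ U : Submodule F V, Inv f U → homCount f U L =
      Fintype.card F ^ ((cp f L).natDegree * (normalizedFactors (cp f U)).count (cp f L)) := by
  intro U
  induction U using WellFoundedLT.induction with
  | _ U ih =>
    intro hU
    by_cases h0 : U = ⊥
    · subst h0
      rw [homCount_bot, cp_bot, normalizedFactors_one, Multiset.count_zero, mul_zero, pow_zero]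
    obtain ⟨A, hA, hAU⟩ := exists_simple hU h0
    obtain ⟨B, hB⟩ := exists_compl hf hA.1 hU hAU
    obtain ⟨hB1, hB2, hB3⟩ := mem_compls.1 hB
    have hlt : B < U := lt_of_le_of_ne (hB3 ▸ le_sup_right) fun h => hA.2.1 (by
      rw [h, inf_eq_left.2 hAU] at hB2; exact hB2)
    rw [homCount_split L hA.1 hB1 hB2 hB3, homCount_simple hA hL, ih B hlt hB1, cp_split hA.1 hB1 hB2 hB3,
      normalizedFactors_mul (cp_monic hA.1).ne_zero (cp_monic hB1).ne_zero, Multiset.count_add, Nat.mul_add, pow_add]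

theorem card_compls {f : Module.End F V} {L W U₀ : Submodule F V} (hLi : Inv f L) (h₀ : U₀ ∈ compls f L W) :
    (compls f L W).card = homCount f U₀ L := by
  classical
  obtain ⟨hU, hd, hs⟩ := mem_compls.1 h₀
  have hUW : U₀ ≤ W := hs ▸ le_sup_right
  rw [← Nat.card_eq_finsetCard]
  symm
  let G : (U₀ →ₗ[F] L) → Submodule F V := fun φ => LinearMap.range (U₀.subtype + L.subtype ∘ₗ φ)
  have hmem : ∀ (φ : U₀ →ₗ[F] L) (x : V), x ∈ G φ ↔ ∃ u : U₀, (u : V) + φ u = x := fun φ x => Iff.rfl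
  have hz : ∀ x : V, x ∈ L → x ∈ U₀ → x = 0 := fun x h1 h2 => by
    have : x ∈ L ⊓ U₀ := ⟨h1, h2⟩
    rwa [hd, Submodule.mem_bot] at this
  refine Nat.card_congr (Equiv.ofBijective (fun φ => ⟨G φ.1, mem_compls.2 ⟨?_, ?_, ?_⟩⟩) ⟨?_, ?_⟩)
  · rintro x ⟨u, rfl⟩
    refine ⟨⟨f u, hU u u.2⟩, ?_⟩
    show f u + (φ.1 ⟨f u, hU u u.2⟩ : V) = f ((u : V) + φ.1 u)
    rw [φ.2 u ⟨f u, hU u u.2⟩ rfl, map_add]
  · rw [Submodule.eq_bot_iff]
    rintro x ⟨hx, u, rfl⟩
    have hu : (u : V) ∈ L := by
      have := L.sub_mem (show (u : V) + φ.1 u ∈ L from hx) (φ.1 u).2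
      rwa [add_sub_cancel_right] at this
    have : u = 0 := Subtype.ext (hz _ hu u.2)
    simp [this]
  · refine le_antisymm (sup_le (hs ▸ le_sup_left) ?_) ?_
    · rintro x ⟨u, rfl⟩
      exact W.add_mem (hUW u.2) ((hs ▸ le_sup_left : L ≤ W) (φ.1 u).2)
    · rw [← hs]
      refine sup_le le_sup_left fun x hx => ?_
      refine Submodule.mem_sup.2 ⟨-(φ.1 ⟨x, hx⟩ : V), L.neg_mem (φ.1 _).2, x + φ.1 ⟨x, hx⟩, ⟨⟨x, hx⟩, rfl⟩, ?_⟩
      abel
  · intro φ ψ h
    refine Subtype.ext (LinearMap.ext fun u => ?_)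
    have h' : G φ.1 = G ψ.1 := congrArg Subtype.val h
    have hm : (u : V) + φ.1 u ∈ G ψ.1 := h' ▸ (hmem φ.1 _).2 ⟨u, rfl⟩
    obtain ⟨u', hu'⟩ := (hmem ψ.1 _).1 hm
    have h1 : (u : V) - u' = ψ.1 u' - φ.1 u := by rw [sub_eq_sub_iff_add_eq_add, ← hu', add_comm]
    have h2 := hz _ (h1 ▸ L.sub_mem (ψ.1 u').2 (φ.1 u).2) (U₀.sub_mem u.2 u'.2)
    have h3 : u = u' := Subtype.ext (sub_eq_zero.1 h2)
    subst h3
    rw [add_right_inj] at hu'
    exact Subtype.ext hu'.symm
  · rintro ⟨U, hUc⟩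
    obtain ⟨hUi, hd', hs'⟩ := mem_compls.1 hUc
    let φ : U₀ →ₗ[F] L :=
      -(LinearMap.fst F L U ∘ₗ (prodEquiv hd' hs').symm.toLinearMap ∘ₗ Submodule.inclusion hUW)
    have hφ : ∀ u : U₀, (u : V) + φ u ∈ U := by
      intro u
      obtain ⟨z, hz'⟩ := (prodEquiv hd' hs').surjective (Submodule.inclusion hUW u)
      have e1 : φ u = -z.1 := by simp [φ, ← hz']
      have e2 : (u : V) = (z.1 : V) + z.2 := by rw [← coe_prodEquiv hd' hs' z, hz']; rfl
      rw [e1, e2, Submodule.coe_neg, add_neg_cancel_comm]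
      exact z.2.2
    have huniq : ∀ (u : U₀) (l : L), (u : V) + l ∈ U → φ u = l := by
      intro u l hl
      have h1 := U.sub_mem (hφ u) hl
      rw [add_sub_add_left_eq_sub] at h1
      have h2 : (φ u : V) - l ∈ L ⊓ U := ⟨L.sub_mem (φ u).2 l.2, h1⟩
      rw [hd', Submodule.mem_bot] at h2
      exact Subtype.ext (sub_eq_zero.1 h2)
    refine ⟨⟨φ, fun u w hw => ?_⟩, Subtype.ext (le_antisymm ?_ ?_)⟩
    · have := huniq w ⟨f (φ u), hLi _ (φ u).2⟩ (by
        show (w : V) + f (φ u) ∈ U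
        rw [hw, ← map_add]; exact hUi _ (hφ u))
      rw [this]
    · rintro x ⟨u, rfl⟩; exact hφ u
    · intro x hx
      have hxW : x ∈ W := (hs' ▸ le_sup_right : U ≤ W) hx
      rw [← hs] at hxW
      obtain ⟨l, hl, u, hu, rfl⟩ := Submodule.mem_sup.1 hxW
      refine (hmem φ _).2 ⟨⟨u, hu⟩, ?_⟩
      rw [huniq ⟨u, hu⟩ ⟨l, hl⟩ (by show u + l ∈ U; rw [add_comm]; exact hx)]
      exact add_comm _ _

/-- The product formula. -/
noncomputable def formula (q : ℕ) (M : Multiset F[X]) : ℤ :=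
  ∏ g ∈ M.toFinset, (-1) ^ M.count g * (q : ℤ) ^ (g.natDegree * M.count g * (M.count g - 1) / 2)

theorem formula_cons (q : ℕ) (g : F[X]) (M : Multiset F[X]) :
    formula q (g ::ₘ M) = -((q : ℤ) ^ (g.natDegree * M.count g)) * formula q M := by
  have hexp : ∀ c, g.natDegree * (c + 1) * (c + 1 - 1) / 2 =
      g.natDegree * c + g.natDegree * c * (c - 1) / 2 := by
    intro c
    rcases c with _ | c
    · simp
    · have : g.natDegree * (c + 1 + 1) * (c + 1) = 2 * (g.natDegree * (c + 1)) + g.natDegree * (c + 1) * c := by ring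
      simp only [Nat.add_sub_cancel]
      rw [this, Nat.add_comm (2 * _), Nat.add_mul_div_left _ _ (by norm_num : 0 < 2), Nat.add_comm]
  have hcongr : ∀ x ∈ M.toFinset.erase g,
      (-1 : ℤ) ^ (g ::ₘ M).count x * (q : ℤ) ^ (x.natDegree * (g ::ₘ M).count x * ((g ::ₘ M).count x - 1) / 2) =
      (-1) ^ M.count x * (q : ℤ) ^ (x.natDegree * M.count x * (M.count x - 1) / 2) := by
    intro x hx
    rw [Multiset.count_cons_of_ne (mem_erase.1 hx).1]
  unfold formula
  rw [Multiset.toFinset_cons]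
  by_cases hg : g ∈ M.toFinset
  · rw [insert_eq_of_mem hg, ← mul_prod_erase _ _ hg, ← mul_prod_erase _ _ hg, prod_congr rfl hcongr,
      Multiset.count_cons_self, hexp, pow_add, pow_succ]
    ring
  · have h0 : M.count g = 0 := Multiset.count_eq_zero.2 fun h => hg (Multiset.mem_toFinset.2 h)
    rw [prod_insert hg]
    rw [prod_congr rfl (fun x hx => hcongr x (by rw [erase_eq_of_notMem hg]; exact hx)),
      Multiset.count_cons_self, h0]
    simp

theorem mu_formula {f : Module.End F V} (hf : Compl f) :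
    ∀ W : Submodule F V, Inv f W → mu f W = formula (Fintype.card F) (normalizedFactors (cp f W)) := by
  intro W
  induction W using WellFoundedLT.induction with
  | _ W ih =>
    intro hW
    by_cases h0 : W = ⊥
    · subst h0
      rw [cp_bot, normalizedFactors_one, mu, if_pos rfl]
      simp [formula]
    obtain ⟨L, hL, hLW⟩ := exists_simple hW h0
    obtain ⟨U₀, hU₀⟩ := exists_compl hf hL.1 hW hLW
    obtain ⟨hU1, hU2, hU3⟩ := mem_compls.1 hU₀
    have hcp : ∀ U ∈ compls f L W, normalizedFactors (cp f U) = normalizedFactors (cp f U₀) := by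
      intro U hU
      obtain ⟨h1, h2, h3⟩ := mem_compls.1 hU
      have := (cp_split hL.1 h1 h2 h3).symm.trans (cp_split hL.1 hU1 hU2 hU3)
      rw [mul_left_cancel₀ (cp_monic hL.1).ne_zero this]
    have hval : ∀ U ∈ compls f L W, mu f U = formula (Fintype.card F) (normalizedFactors (cp f U₀)) := by
      intro U hU
      obtain ⟨h1, h2, h3⟩ := mem_compls.1 hU
      have hlt : U < W := lt_of_le_of_ne (h3 ▸ le_sup_right) fun h => hL.2.1 (by
        rw [h, inf_eq_left.2 hLW] at h2; exact h2)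
      rw [ih U hlt h1, hcp U hU]
    have hM : normalizedFactors (cp f W) = cp f L ::ₘ normalizedFactors (cp f U₀) := by
      rw [cp_split hL.1 hU1 hU2 hU3, normalizedFactors_mul (cp_monic hL.1).ne_zero (cp_monic hU1).ne_zero,
        normalizedFactors_irreducible hL.irreducible, (cp_monic hL.1).normalize_eq_self, Multiset.singleton_add]
    rw [mu_eq_neg hL hW hLW, sum_congr rfl hval, sum_const, card_compls hL.1 hU₀, homCount_eq hf hL U₀ hU1,
      hM, formula_cons, nsmul_eq_mul]
    push_cast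
    ring

end CfsgLib.GLSteinberg
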