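import Mathlib

/-!
Invariant subspaces of an endomorphism: minimal ones, characteristic polynomials, equivariant maps.
-/

set_option autoImplicit false

namespace CfsgLib.GLSteinberg

open Polynomial

variable {F : Type*} [Field F] {V : Type*} [AddCommGroup V] [Module F V]

/-- Invariance of a subspace. -/
def Inv (f : Module.End F V) (U : Submodule F V) : Prop := ∀ x ∈ U, f x ∈ U

theorem inv_bot (f : Module.End F V) : Inv f ⊥ := fun x hx => by
  rw [Submodule.mem_bot] at hx ⊢; rw [hx, map_zero]

theorem inv_inf {f : Module.End F V} {U W : Submodule F V} (hU : Inv f U) (hW : Inv f W) : Inv f (U ⊓ W) :=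
  fun x hx => ⟨hU x hx.1, hW x hx.2⟩

theorem inv_sup {f : Module.End F V} {U W : Submodule F V} (hU : Inv f U) (hW : Inv f W) : Inv f (U ⊔ W) := by
  intro x hx
  obtain ⟨u, hu, w, hw, rfl⟩ := Submodule.mem_sup.1 hx
  rw [map_add]
  exact Submodule.add_mem_sup (hU u hu) (hW w hw)

theorem aeval_mem {f : Module.End F V} {U : Submodule F V} (hU : Inv f U) (p : F[X]) :
    ∀ x ∈ U, aeval f p x ∈ U := by
  induction p using Polynomial.induction_on' with
  | add p q hp hq =>
    intro x hx
    rw [map_add, LinearMap.add_apply]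
    exact U.add_mem (hp x hx) (hq x hx)
  | monomial n a =>
    intro x hx
    rw [aeval_monomial, Module.End.mul_apply, Module.algebraMap_end_apply]
    refine U.smul_mem a ?_
    clear a
    induction n generalizing x with
    | zero => simpa using hx
    | succ n ih => rw [pow_succ, Module.End.mul_apply]; exact ih _ (hU x hx)

theorem aeval_restrict {f : Module.End F V} {U : Submodule F V} (hU : Inv f U) (p : F[X]) :
    ∀ x : U, ((aeval (f.restrict hU : Module.End F U) p x : U) : V) = aeval f p (x : V) := by
  induction p using Polynomial.induction_on' with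
  | add p q hp hq =>
    intro x
    rw [map_add, map_add, LinearMap.add_apply, LinearMap.add_apply, Submodule.coe_add, hp, hq]
  | monomial n a =>
    intro x
    rw [aeval_monomial, aeval_monomial, Module.End.mul_apply, Module.End.mul_apply,
      Module.algebraMap_end_apply, Module.algebraMap_end_apply, Submodule.coe_smul]
    congr 1
    clear a
    induction n generalizing x with
    | zero => simp
    | succ n ih =>
      rw [pow_succ, pow_succ, Module.End.mul_apply, Module.End.mul_apply, ih]; rfl

open scoped Classical in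
/-- The characteristic polynomial on an invariant subspace. -/
noncomputable def cp (f : Module.End F V) (U : Submodule F V) [FiniteDimensional F V] : F[X] :=
  if h : Inv f U then (f.restrict h : Module.End F U).charpoly else 1

variable [FiniteDimensional F V] {f : Module.End F V}

theorem cp_eq {U : Submodule F V} (hU : Inv f U) : cp f U = (f.restrict hU : Module.End F U).charpoly :=
  dif_pos hU

theorem cp_monic {U : Submodule F V} (hU : Inv f U) : (cp f U).Monic := by
  rw [cp_eq hU]; exact LinearMap.charpoly_monic _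

theorem cp_natDegree {U : Submodule F V} (hU : Inv f U) : (cp f U).natDegree = Module.finrank F U := by
  rw [cp_eq hU]; exact LinearMap.charpoly_natDegree _

theorem aeval_cp {U : Submodule F V} (hU : Inv f U) {x : V} (hx : x ∈ U) : aeval f (cp f U) x = 0 := by
  have h := aeval_restrict hU (cp f U) ⟨x, hx⟩
  rw [← h, cp_eq hU, LinearMap.aeval_self_charpoly]
  rfl

theorem cp_bot : cp f ⊥ = 1 := by
  refine (cp_monic (inv_bot f)).natDegree_eq_zero.1 ?_
  rw [cp_natDegree (inv_bot f), finrank_bot]

/-- A minimal nonzero invariant subspace. -/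
def Simple (f : Module.End F V) (A : Submodule F V) : Prop :=
  Inv f A ∧ A ≠ ⊥ ∧ ∀ B, Inv f B → B ≤ A → B = ⊥ ∨ B = A

theorem exists_simple {W : Submodule F V} (hW : Inv f W) (hne : W ≠ ⊥) : ∃ A, Simple f A ∧ A ≤ W := by
  obtain ⟨A, ⟨hA1, hA2, hA3⟩, hmin⟩ := WellFounded.has_min (wellFounded_lt (α := Submodule F V))
    {A | Inv f A ∧ A ≠ ⊥ ∧ A ≤ W} ⟨W, hW, hne, le_rfl⟩
  refine ⟨A, ⟨hA1, hA2, fun B hB hBA => ?_⟩, hA3⟩
  by_contra h
  push Not at h
  exact hmin B ⟨hB, h.1, hBA.trans hA3⟩ (lt_of_le_of_ne hBA h.2)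

/-- Evaluation at a vector. -/
noncomputable def evalAt (f : Module.End F V) (v : V) : F[X] →ₗ[F] V :=
  (LinearMap.applyₗ v) ∘ₗ (aeval f).toLinearMap

theorem evalAt_apply (v : V) (p : F[X]) : evalAt f v p = aeval f p v := rfl

theorem inv_range_evalAt (v : V) : Inv f (LinearMap.range (evalAt f v)) := by
  rintro x ⟨p, rfl⟩
  exact ⟨X * p, by rw [evalAt_apply, evalAt_apply, map_mul, aeval_X, Module.End.mul_apply]⟩

theorem aeval_modByMonic {e : F[X]} {w : V} (h : aeval f e w = 0) (p : F[X]) :
    aeval f p w = aeval f (p %ₘ e) w := by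
  conv_lhs => rw [← modByMonic_add_div p e]
  rw [map_add, LinearMap.add_apply, mul_comm e, map_mul, Module.End.mul_apply, h, map_zero, add_zero]

theorem Simple.le_range {A : Submodule F V} (hA : Simple f A) {v : V} (hv : v ∈ A) (hv0 : v ≠ 0) :
    A = LinearMap.range (evalAt f v) := by
  have hle : LinearMap.range (evalAt f v) ≤ A := by
    rintro x ⟨p, rfl⟩; exact aeval_mem hA.1 p v hv
  refine ((hA.2.2 _ (inv_range_evalAt v) hle).resolve_left ?_).symm
  intro h
  have : v ∈ LinearMap.range (evalAt f v) := ⟨1, by simp [evalAt_apply]⟩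
  rw [h, Submodule.mem_bot] at this
  exact hv0 this

theorem Simple.finrank_le {A : Submodule F V} (hA : Simple f A) {v : V} (hv : v ∈ A) (hv0 : v ≠ 0)
    {e : F[X]} (he : e.Monic) (hev : aeval f e v = 0) : Module.finrank F A ≤ e.natDegree := by
  have h : A ≤ (degreeLT F e.natDegree).map (evalAt f v) := by
    intro x hx
    rw [hA.le_range hv hv0] at hx
    obtain ⟨p, rfl⟩ := hx
    refine ⟨p %ₘ e, Polynomial.mem_degreeLT.2 ?_, (aeval_modByMonic hev p).symm⟩
    rw [← degree_eq_natDegree he.ne_zero]
    exact degree_modByMonic_lt p he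
  haveI : FiniteDimensional F (degreeLT F e.natDegree) := (degreeLTEquiv F e.natDegree).symm.finiteDimensional
  refine (Submodule.finrank_mono h).trans ((Submodule.finrank_map_le _ _).trans ?_)
  rw [(degreeLTEquiv F e.natDegree).finrank_eq, Module.finrank_fin_fun]

theorem Simple.irreducible {A : Submodule F V} (hA : Simple f A) : Irreducible (cp f A) := by
  obtain ⟨v, hv, hv0⟩ := (Submodule.ne_bot_iff A).1 hA.2.1
  have hd : 0 < (cp f A).natDegree := by
    rw [cp_natDegree hA.1, Module.finrank_pos_iff_exists_ne_zero]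
    exact ⟨⟨v, hv⟩, fun h => hv0 (congrArg Subtype.val h)⟩
  rw [(cp_monic hA.1).irreducible_iff_natDegree]
  refine ⟨fun h => by rw [h, natDegree_one] at hd; exact lt_irrefl 0 hd, fun a b ha hb hab => ?_⟩
  by_contra hc
  push Not at hc
  have hdeg := congrArg natDegree hab
  rw [ha.natDegree_mul hb, cp_natDegree hA.1] at hdeg
  have hK : ∀ c : F[X], Inv f (A ⊓ LinearMap.ker (aeval f c)) := by
    intro c x hx
    refine ⟨hA.1 x hx.1, ?_⟩
    have h0 : aeval f c x = 0 := hx.2
    show aeval f c (f x) = 0
    have h1 : aeval f (c * X) x = aeval f (X * c) x := by rw [mul_comm]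
    rw [map_mul, map_mul, aeval_X, Module.End.mul_apply, Module.End.mul_apply, h0, map_zero] at h1
    exact h1
  by_cases hb0 : aeval f b v = 0
  · have := hA.finrank_le hv hv0 hb hb0
    omega
  · have h0 : aeval f a (aeval f b v) = 0 := by
      rw [← Module.End.mul_apply, ← map_mul, hab, aeval_cp hA.1 hv]
    have := hA.finrank_le (aeval_mem hA.1 b v hv) hb0 ha h0
    omega

theorem Simple.natDegree {A : Submodule F V} (hA : Simple f A) {v : V} (hv : v ∈ A) (hv0 : v ≠ 0) {p : F[X]}
    (hp : aeval f p v = 0) : cp f A ∣ p := by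
  by_contra h
  have hm := cp_monic hA.1
  rw [← modByMonic_eq_zero_iff_dvd hm] at h
  have h0 : aeval f (p %ₘ cp f A) v = 0 := by rw [← aeval_modByMonic (aeval_cp hA.1 hv), hp]
  have hu := hA.finrank_le hv hv0 (monic_mul_leadingCoeff_inv h)
    (by rw [map_mul, aeval_C, Module.End.mul_apply, Module.algebraMap_end_apply, map_smul, h0, smul_zero])
  rw [natDegree_mul_leadingCoeff_inv _ h, ← cp_natDegree hA.1] at hu
  have hne : cp f A ≠ 1 := hA.irreducible.ne_one
  have := natDegree_modByMonic_lt p hm hne
  omega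

end CfsgLib.GLSteinberg
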